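import Mathlib
import Cfsg.Agent.Leech.Monster.Orbits
import Cfsg.Agent.PGroup.Extraspecial
import Cfsg.Agent.LocalP.Basic
import Cfsg.Agent.CharP.Climb

set_option autoImplicit false

/-! In the Monster-type setting: the centraliser of an element of odd prime order centralising `z`
and a further conjugate of `z` in `Q`, modulo that element. Coprime lifting is done by fixed points
of permutations of prime order on sets of order prime to it. -/

namespace CfsgLib.MonsterCent13

open Cfsg CfsgLib.Leech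

/-- A coset whose size is prime to `p`, stable under an element of order dividing `p`, has an element
commuting with it. -/
theorem exists_commute_coset {H : Type*} [Group H] [Finite H] {p : ℕ} [Fact p.Prime] {b x : H}
    (hb : b ^ p = 1) (S : Subgroup H) (hS : ∀ s ∈ S, b * s * b⁻¹ ∈ S)
    (hx : x⁻¹ * (b * x * b⁻¹) ∈ S) (hcard : ¬ p ∣ Nat.card S) :
    ∃ s ∈ S, Commute b (x * s) := by
  classical
  haveI := Fintype.ofFinite H
  have hmap : ∀ y : H, x⁻¹ * y ∈ S → x⁻¹ * (b * y * b⁻¹) ∈ S := fun y hy => by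
    have e : x⁻¹ * (b * y * b⁻¹) = x⁻¹ * (b * x * b⁻¹) * (b * (x⁻¹ * y) * b⁻¹) := by group
    rw [e]
    exact mul_mem hx (hS _ hy)
  let f : {y : H // x⁻¹ * y ∈ S} → {y : H // x⁻¹ * y ∈ S} := fun y => ⟨_, hmap y.1 y.2⟩
  have hinj : Function.Injective f := fun u v h => Subtype.ext (by
    have h' := congrArg Subtype.val h
    simp only [f] at h'
    exact mul_left_cancel (mul_right_cancel h'))
  let σ : Equiv.Perm {y : H // x⁻¹ * y ∈ S} := Equiv.ofBijective f (Finite.injective_iff_bijective.1 hinj)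
  have hσ : ∀ (n : ℕ) (y), ((σ ^ n) y).1 = b ^ n * y.1 * (b ^ n)⁻¹ := by
    intro n
    induction n with
    | zero => intro y; simp
    | succ n ih =>
      intro y
      rw [pow_succ', Equiv.Perm.mul_apply]
      show b * ((σ ^ n) y).1 * b⁻¹ = _
      rw [ih, pow_succ']
      group
  have hσp : σ ^ p ^ 1 = 1 := Equiv.ext fun y => Subtype.ext (by
    rw [pow_one, hσ, hb, inv_one, mul_one, one_mul]; rfl)
  have hc : Fintype.card {y : H // x⁻¹ * y ∈ S} = Nat.card S := by
    rw [← Nat.card_eq_fintype_card]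
    exact Nat.card_congr
      { toFun := fun y => ⟨_, y.2⟩
        invFun := fun s => ⟨x * s.1, by rw [inv_mul_cancel_left]; exact s.2⟩
        left_inv := fun y => Subtype.ext (mul_inv_cancel_left x y.1)
        right_inv := fun s => Subtype.ext (inv_mul_cancel_left x s.1) }
  obtain ⟨y, hy⟩ := Equiv.Perm.exists_fixed_point_of_prime (hc ▸ hcard) hσp
  refine ⟨x⁻¹ * y.1, y.2, ?_⟩
  rw [mul_inv_cancel_left]
  exact mul_inv_eq_iff_eq_mul.1 (congrArg Subtype.val hy)

variable {G : Type*} [Group G] [Finite G] {z : G}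
variable {Q : Subgroup (Subgroup.centralizer ({z} : Set G))} [Q.Normal]
variable {e : (Subgroup.centralizer ({z} : Set G)) ⧸ Q ≃* Spor.Co1}
variable {ψ : leechLattice → Q ⧸ Subgroup.center Q}

theorem not_dvd_card_le_Q (hc : Ctx z Q e ψ) {p : ℕ} (hp : p.Prime) (hp2 : p ≠ 2)
    {S : Subgroup (Subgroup.centralizer ({z} : Set G))} (hS : S ≤ Q) : ¬ p ∣ Nat.card S := by
  intro h
  have h2 := h.trans (Subgroup.card_dvd_of_le hS)
  rw [hc.setting.2.2.2.1] at h2
  exact hp2 ((Nat.prime_dvd_prime_iff_eq hp Nat.prime_two).1 (hp.dvd_of_dvd_pow h2))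

variable (hc : Ctx z Q e ψ) {p : ℕ} [Fact p.Prime] {b : Subgroup.centralizer ({z} : Set G)}
include hc

/-- An element of `Q` centralised by `b` and outside the centre is moved to its other lift by an
element of `Q` centralised by `b`. -/
theorem exists_swap_commute (hp2 : p ≠ 2) (hb : b ^ p = 1) {x : Q} (hx : ¬ (x = 1 ∨ x = hc.zq))
    (hcom : Commute b (x : Subgroup.centralizer ({z} : Set G))) :
    ∃ y : Q, y * x * y⁻¹ = x * hc.zq ∧ Commute b (y : Subgroup.centralizer ({z} : Set G)) := by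
  obtain ⟨y₀, hy₀⟩ := hc.exists_swap hx
  let S : Subgroup (Subgroup.centralizer ({z} : Set G)) :=
    Q ⊓ Subgroup.centralizer ({(x : Subgroup.centralizer ({z} : Set G))} : Set _)
  have hS : ∀ s ∈ S, b * s * b⁻¹ ∈ S := fun s hs => by
    obtain ⟨h1, h2⟩ := Subgroup.mem_inf.1 hs
    refine Subgroup.mem_inf.2 ⟨(inferInstance : Q.Normal).conj_mem _ h1 b, ?_⟩
    rw [Subgroup.mem_centralizer_singleton_iff] at h2 ⊢
    exact (((hcom.mul_left h2).mul_left hcom.inv_left) : Commute _ _).eq
  have hy₀' : (y₀ : Subgroup.centralizer ({z} : Set G)) * x * (y₀ : Subgroup.centralizer ({z} : Set G))⁻¹ =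
      x * zElt z := congrArg Subtype.val hy₀
  have hx0 : (y₀ : Subgroup.centralizer ({z} : Set G))⁻¹ * (b * y₀ * b⁻¹) ∈ S := by
    refine Subgroup.mem_inf.2 ⟨mul_mem (inv_mem y₀.2) ((inferInstance : Q.Normal).conj_mem _ y₀.2 b), ?_⟩
    rw [Subgroup.mem_centralizer_singleton_iff]
    have h2 : (b * (y₀ : Subgroup.centralizer ({z} : Set G)) * b⁻¹) * x *
        (b * (y₀ : Subgroup.centralizer ({z} : Set G)) * b⁻¹)⁻¹ = x * zElt z := by
      calc (b * (y₀ : Subgroup.centralizer ({z} : Set G)) * b⁻¹) * x *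
            (b * (y₀ : Subgroup.centralizer ({z} : Set G)) * b⁻¹)⁻¹
          = b * y₀ * (b⁻¹ * x) * b * (y₀ : Subgroup.centralizer ({z} : Set G))⁻¹ * b⁻¹ := by group
        _ = b * ((y₀ : Subgroup.centralizer ({z} : Set G)) * x *
            (y₀ : Subgroup.centralizer ({z} : Set G))⁻¹) * b⁻¹ := by rw [hcom.inv_left.eq]; group
        _ = b * x * zElt z * b⁻¹ := by rw [hy₀']; group
        _ = x * zElt z := by
          rw [hcom.eq, mul_assoc (x : Subgroup.centralizer ({z} : Set G)), zElt_central b]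
          group
    rw [← hy₀'] at h2
    generalize b * (y₀ : Subgroup.centralizer ({z} : Set G)) * b⁻¹ = c at h2 ⊢
    generalize (y₀ : Subgroup.centralizer ({z} : Set G)) = y at h2 ⊢
    calc y⁻¹ * c * x = y⁻¹ * (c * x * c⁻¹) * c := by group
      _ = x * (y⁻¹ * c) := by rw [h2]; group
  obtain ⟨s, hs, hbs⟩ := exists_commute_coset hb S hS hx0
    (not_dvd_card_le_Q hc Fact.out hp2 inf_le_left)
  refine ⟨⟨_, mul_mem y₀.2 (Subgroup.mem_inf.1 hs).1⟩, Subtype.ext ?_, hbs⟩
  show (y₀ : Subgroup.centralizer ({z} : Set G)) * s * x *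
    ((y₀ : Subgroup.centralizer ({z} : Set G)) * s)⁻¹ = x * zElt z
  rw [← hy₀']
  have h := Subgroup.mem_centralizer_singleton_iff.1 (Subgroup.mem_inf.1 hs).2
  calc _ = (y₀ : Subgroup.centralizer ({z} : Set G)) * (s * x) * s⁻¹ *
        (y₀ : Subgroup.centralizer ({z} : Set G))⁻¹ := by group
    _ = _ := by rw [h]; group

/-- A fixed class has a fixed lift. -/
theorem exists_lift_commute (hp2 : p ≠ 2) (hb : b ^ p = 1) {γ : Co0} (hm : Match e b γ)
    {v : leechLattice} (hv : Cg (γ • v) v) :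
    ∃ q : Q, ψ v = QuotientGroup.mk q ∧ Commute b (q : Subgroup.centralizer ({z} : Set G)) := by
  obtain ⟨q₀, hq₀⟩ := QuotientGroup.mk_surjective (ψ v)
  let S : Subgroup (Subgroup.centralizer ({z} : Set G)) := (Subgroup.center Q).map Q.subtype
  have hS : ∀ s ∈ S, b * s * b⁻¹ ∈ S := by
    rintro _ ⟨c, hc', rfl⟩
    rcases hc.mem_center.1 hc' with rfl | rfl
    · simp
    · refine ⟨hc.zq, hc', ?_⟩
      show zElt z = b * zElt z * b⁻¹
      rw [zElt_central b, mul_inv_cancel_right]
  have hx : (q₀ : Subgroup.centralizer ({z} : Set G))⁻¹ * (b * q₀ * b⁻¹) ∈ S := by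
    have h1 := hc.conj_class hm hq₀.symm
    have h2 := ((psi_eq_iff hc.iso _ _).2 hv).symm.trans h1
    rw [← hq₀] at h2
    exact ⟨_, QuotientGroup.eq.1 h2, rfl⟩
  obtain ⟨_, ⟨c, hc', rfl⟩, hbs⟩ := exists_commute_coset hb S hS hx
    (not_dvd_card_le_Q hc Fact.out hp2 (Subgroup.map_subtype_le _))
  refine ⟨q₀ * c, ?_, hbs⟩
  rw [← hq₀]
  exact QuotientGroup.eq.2 (by rw [inv_mul_cancel_left]; exact hc')

/-- An element of the lattice group commuting with `γ` lifts to one commuting with `b`. -/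
theorem exists_match_commute (hp2 : p ≠ 2) (hb : b ^ p = 1) {γ g : Co0} (hm : Match e b γ)
    (hg : Commute g γ) : ∃ h, Match e h g ∧ Commute b h := by
  obtain ⟨h₀, hh₀⟩ := exists_match_left (e := e) g
  have hx : h₀⁻¹ * (b * h₀ * b⁻¹) ∈ Q := by
    refine hh₀.unique ?_
    have := (hm.mul hh₀).mul hm.inv
    rwa [← hg.eq, mul_inv_cancel_right] at this
  obtain ⟨s, hs, hbs⟩ := exists_commute_coset hb Q
    (fun s hs => (inferInstance : Q.Normal).conj_mem _ hs b) hx
    (not_dvd_card_le_Q hc Fact.out hp2 le_rfl)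
  refine ⟨h₀ * s, ?_, hbs⟩
  rw [Match, QuotientGroup.mk_mul, (QuotientGroup.eq_one_iff s).2 hs, mul_one]
  exact hh₀

/-- Conversely, commuting with `b` gives commuting with `γ`. -/
theorem commute_of_commute (hp2 : p ≠ 2) {γ g : Co0} (hγ : γ ^ p = 1)
    {h : Subgroup.centralizer ({z} : Set G)} (hm : Match e b γ) (hh : Match e h g)
    (hbh : Commute b h) : Commute g γ := by
  have h1 := (hh.mul hm).mul hh.inv
  rw [show h * b * h⁻¹ = b by rw [← hbh.eq, mul_inv_cancel_right]] at h1
  rcases center_co0_cases (QuotientGroup.eq.1 (hm.trans h1.symm)) with r | r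
  · exact mul_inv_eq_iff_eq_mul.1 (inv_mul_eq_one.1 r).symm
  · exfalso
    have hconj : g * γ * g⁻¹ = γ * negOne := by rw [← r, mul_inv_cancel_left]
    have h2 := congrArg (· ^ p) hconj
    simp only [conj_pow, hγ, mul_one, mul_inv_cancel] at h2
    have hcn : Commute γ negOne := Subgroup.mem_center_iff.1 negOne_central γ
    rw [hcn.mul_pow, hγ, one_mul] at h2
    have h3 : negOne ^ 2 = 1 := by
      refine co0_ext fun i => ?_
      rw [pow_two, mul_smul, one_smul, negOne_smul, negOne_smul, neg_neg]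
    have hodd : Odd p := (Fact.out : p.Prime).odd_of_ne_two hp2
    obtain ⟨k, hk⟩ := hodd
    rw [hk, pow_succ, pow_mul, h3, one_pow, one_mul] at h2
    have h4 := congrArg (fun c : Co0 => ((c • axisVec none : leechLattice) : GolayPt → ℤ) none) h2
    simp [negOne_smul, axisVec, single] at h4

end CfsgLib.MonsterCent13

namespace CfsgLib.MonsterCent13

open Cfsg CfsgLib.Leech

/-- The central subgroup of a centraliser in the lattice group. -/
def base (γ : Co0) : Subgroup (Subgroup.centralizer ({γ} : Set Co0)) :=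
  (Subgroup.center Co0 ⊔ Subgroup.zpowers γ).subgroupOf _

instance base_normal (γ : Co0) : (base γ).Normal := by
  refine ⟨fun n hn g => ?_⟩
  have h : Commute (g : Co0) (n : Co0) := by
    have hg : Commute (g : Co0) γ := Subgroup.mem_centralizer_singleton_iff.1 g.2
    have hn' : (n : Co0) ∈ Subgroup.center Co0 ⊔ Subgroup.zpowers γ := hn
    obtain ⟨c, hc', _, ⟨k, rfl⟩, hck⟩ := Subgroup.mem_sup_of_normal_left.1 hn'
    rw [← hck]
    exact Commute.mul_right (Subgroup.mem_center_iff.1 hc' _) (hg.zpow_right k)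
  show ((g * n * g⁻¹ : Subgroup.centralizer ({γ} : Set Co0)) : Co0) ∈
    Subgroup.center Co0 ⊔ Subgroup.zpowers γ
  simp only [Subgroup.coe_mul, InvMemClass.coe_inv]
  rw [h.eq, mul_inv_cancel_right]
  exact hn

end CfsgLib.MonsterCent13
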