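import Mathlib
import Cfsg.Agent.MonsterCent13.Generic

set_option autoImplicit false

/-! The centraliser of the image of `z` in `C(b)/b`, and a conjugate of that image inside its
largest normal `2`-subgroup. -/

namespace CfsgLib.MonsterCent13

open Cfsg CfsgLib.Leech

variable {G : Type*} [Group G] [Finite G] {z : G}
variable {Q : Subgroup (Subgroup.centralizer ({z} : Set G))} [Q.Normal]
variable {e : (Subgroup.centralizer ({z} : Set G)) ⧸ Q ≃* Spor.Co1}
variable {ψ : leechLattice → Q ⧸ Subgroup.center Q}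
variable (hc : Ctx z Q e ψ) {p : ℕ} [Fact p.Prime] {b : Subgroup.centralizer ({z} : Set G)}

/-- The elements of `C` commuting with `b`. -/
def bCent (b : Subgroup.centralizer ({z} : Set G)) :
    Subgroup (Subgroup.centralizer ({z} : Set G)) := Subgroup.centralizer {b}

theorem mem_bCent {k : Subgroup.centralizer ({z} : Set G)} : k ∈ bCent b ↔ Commute b k :=
  Subgroup.mem_centralizer_singleton_iff.trans ⟨Eq.symm, Eq.symm⟩

/-- The elements of `Q` commuting with `b`. -/
def fixQ (Q : Subgroup (Subgroup.centralizer ({z} : Set G)))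
    (b : Subgroup.centralizer ({z} : Set G)) : Subgroup Q :=
  (bCent b).subgroupOf Q

include hc in
/-- The order of the fixed part of `Q`. -/
theorem card_fixQ (hp2 : p ≠ 2) (hb : b ^ p = 1) {γ : Co0} (hm : Match e b γ) :
    Nat.card (fixQ Q b) =
      2 * Nat.card {c : Q ⧸ Subgroup.center Q // ∃ v, ψ v = c ∧ Cg (γ • v) v} := by
  have hle : Subgroup.center Q ≤ fixQ Q b := by
    intro q hq
    rw [fixQ, Subgroup.mem_subgroupOf, mem_bCent]
    rcases hc.mem_center.1 hq with rfl | rfl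
    · exact Commute.one_right b
    · exact zElt_central b
  set f := (QuotientGroup.mk' (Subgroup.center Q)).comp (fixQ Q b).subtype with hf
  have hk : f.ker = (Subgroup.center Q).subgroupOf (fixQ Q b) := by
    ext q; exact QuotientGroup.eq_one_iff _
  have h := Subgroup.card_mul_index f.ker
  rw [Subgroup.index_ker, hk, Nat.card_congr (Subgroup.subgroupOfEquivOfLe hle).toEquiv,
    hc.setting.2.2.1.2] at h
  rw [← h]
  congr 1
  refine Nat.card_congr (Equiv.subtypeEquivRight fun c => ?_)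
  constructor
  · rintro ⟨⟨q, hq⟩, rfl⟩
    obtain ⟨v, hv⟩ := hc.exists_class q
    refine ⟨v, hv, (psi_eq_iff hc.iso _ _).1 ?_⟩
    rw [hc.conj_class hm hv, hv]
    refine congrArg QuotientGroup.mk (Subtype.ext ?_)
    show b * _ * b⁻¹ = _
    rw [(mem_bCent.1 (Subgroup.mem_subgroupOf.1 hq)).eq, mul_inv_cancel_right]
  · rintro ⟨v, rfl, hv⟩
    obtain ⟨q, hq, hcom⟩ := exists_lift_commute hc hp2 hb hm hv
    exact ⟨⟨q, Subgroup.mem_subgroupOf.2 (mem_bCent.2 hcom)⟩, hq.symm⟩

include hc in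
/-- The centre of the fixed part is the centre of `Q`, and the fixed part is extraspecial once
it has a noncentral element. -/
theorem fixQ_extraspecial (hp2 : p ≠ 2) (hb : b ^ p = 1) {x : Q} (hx : ¬ (x = 1 ∨ x = hc.zq))
    (hcx : Commute b (x : Subgroup.centralizer ({z} : Set G))) :
    IsExtraspecial 2 (fixQ Q b) ∧ ∀ r : fixQ Q b, (∀ r', r * r' = r' * r) →
      (r : Q) = 1 ∨ (r : Q) = hc.zq := by
  haveI : Fact (Nat.Prime 2) := ⟨Nat.prime_two⟩
  have hzmem : hc.zq ∈ fixQ Q b := Subgroup.mem_subgroupOf.2 (mem_bCent.2 (zElt_central b))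
  have key : ∀ r : fixQ Q b, (∀ r', r * r' = r' * r) → (r : Q) = 1 ∨ (r : Q) = hc.zq := by
    intro r hr
    by_contra hne
    obtain ⟨y, hy, hcy⟩ := exists_swap_commute hc hp2 hb hne (mem_bCent.1 (Subgroup.mem_subgroupOf.1 r.2))
    have h1 : (r : Q) * y = y * r :=
      congrArg Subtype.val (hr ⟨y, Subgroup.mem_subgroupOf.2 (mem_bCent.2 hcy)⟩)
    rw [← h1, mul_inv_cancel_right] at hy
    exact hc.zq_ne_one (mul_eq_left.1 hy.symm)
  have hcen : ∀ r : fixQ Q b, r ∈ Subgroup.center (fixQ Q b) ↔ (r : Q) = 1 ∨ (r : Q) = hc.zq := by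
    intro r
    refine ⟨fun h => key r fun r' => (Subgroup.mem_center_iff.1 h r').symm, fun h => ?_⟩
    exact Subgroup.mem_center_iff.2 fun r' => Subtype.ext
      (Subgroup.mem_center_iff.1 (hc.mem_center.2 h) r')
  have hQ : IsExtraspecial 2 Q := hc.setting.2.2.1
  refine ⟨PGroup.isExtraspecial_of (hQ.1.1.to_subgroup _) ?_ ?_ (fun a c => (hcen _).2 ?_)
    (fun a => (hcen _).2 (hc.mem_center.1 ?_)), key⟩
  · refine Nat.card_eq_two_iff.2 ⟨⟨1, one_mem _⟩, ⟨⟨hc.zq, hzmem⟩, (hcen _).2 (Or.inr rfl)⟩,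
      fun h => hc.zq_ne_one (congrArg (fun r => ((r : fixQ Q b) : Q)) (congrArg Subtype.val h)).symm,
      Set.eq_univ_of_forall fun r => ?_⟩
    rcases (hcen r.1).1 r.2 with h | h
    · exact Or.inl (Subtype.ext (Subtype.ext h))
    · exact Or.inr (Subtype.ext (Subtype.ext h))
  · obtain ⟨y, hy, hcy⟩ := exists_swap_commute hc hp2 hb hx hcx
    refine ⟨⟨y, Subgroup.mem_subgroupOf.2 (mem_bCent.2 hcy)⟩,
      ⟨x, Subgroup.mem_subgroupOf.2 (mem_bCent.2 hcx)⟩, fun h => ?_⟩
    have h1 : y * x = x * y := congrArg Subtype.val h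
    rw [h1, mul_inv_cancel_right] at hy
    exact hc.zq_ne_one (mul_eq_left.1 hy.symm)
  · exact hc.mem_center.1 (PGroup.extraspecial_comm_mem hQ (a : Q) (c : Q))
  · exact PGroup.extraspecial_pow_mem hQ (a : Q)

include hc in
/-- An element commuting with `b` conjugates `z` to another conjugate of `z` in `Q`. -/
theorem exists_move (hp2 : p ≠ 2) (hb : b ^ p = 1) {g : G} {sq : Q} (hp : ConjPair z Q g sq)
    (hcs : Commute b (sq : Subgroup.centralizer ({z} : Set G))) :
    ∃ x : G, Commute (b : G) x ∧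
      x * z * x⁻¹ = ((sq : Subgroup.centralizer ({z} : Set G)) : G) := by
  obtain ⟨y, hy, hby⟩ := exists_swap_commute hc hp2 hb (hc.sq_noncentral hp) hcs
  obtain ⟨q', hq'm, hq'⟩ := hc.z_mem_conj hp
  obtain ⟨q, rfl⟩ := hc.mem_qG.1 hq'm
  have hbs : Commute (b : G) (g * z * g⁻¹) := by rw [← hp.eq]; exact congrArg Subtype.val hcs
  have hbz : Commute (b : G) z := (Subgroup.mem_centralizer_iff.1 b.2 z rfl).symm
  have hb' : g⁻¹ * (b : G) * g ∈ Subgroup.centralizer ({z} : Set G) := by
    rw [Subgroup.mem_centralizer_singleton_iff]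
    calc g⁻¹ * (b : G) * g * z = g⁻¹ * ((b : G) * (g * z * g⁻¹)) * g := by group
      _ = z * (g⁻¹ * (b : G) * g) := by rw [hbs.eq]; group
  set b' : Subgroup.centralizer ({z} : Set G) := ⟨_, hb'⟩ with hb'def
  have hbp : b' ^ p = 1 := Subtype.ext (by
    show (g⁻¹ * (b : G) * g) ^ p = 1
    have e : g⁻¹ * (b : G) * g = g⁻¹ * (b : G) * g⁻¹⁻¹ := by group
    rw [e, conj_pow, show (b : G) ^ p = 1 from congrArg Subtype.val hb]
    group)
  have hq : g * ((q : Subgroup.centralizer ({z} : Set G)) : G) * g⁻¹ = z := hq'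
  have hqb : Commute b' (q : Subgroup.centralizer ({z} : Set G)) := Subtype.ext (by
    show g⁻¹ * (b : G) * g * _ = _ * (g⁻¹ * (b : G) * g)
    have e : ((q : Subgroup.centralizer ({z} : Set G)) : G) = g⁻¹ * z * g := by
      calc ((q : Subgroup.centralizer ({z} : Set G)) : G)
          = g⁻¹ * (g * ((q : Subgroup.centralizer ({z} : Set G)) : G) * g⁻¹) * g := by group
        _ = _ := by rw [hq]
    rw [e]
    calc g⁻¹ * (b : G) * g * (g⁻¹ * z * g) = g⁻¹ * ((b : G) * z) * g := by group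
      _ = _ := by rw [hbz.eq]; group)
  have hqn : ¬ (q = 1 ∨ q = hc.zq) := by
    rintro (r | r) <;> rw [r] at hq
    · have h1 : g * (1 : G) * g⁻¹ = z := hq
      rw [mul_one, mul_inv_cancel] at h1
      have h2 := hc.setting.1
      rw [← h1, orderOf_one] at h2
      omega
    · exact hp.ne hq
  obtain ⟨w, hw, hbw⟩ := exists_swap_commute hc hp2 hbp hqn hqb
  refine ⟨((y : Subgroup.centralizer ({z} : Set G)) : G) *
    (g * ((w : Subgroup.centralizer ({z} : Set G)) : G) * g⁻¹), ?_, ?_⟩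
  · refine Commute.mul_right (congrArg Subtype.val hby) ?_
    have hw' : g⁻¹ * (b : G) * g * ((w : Subgroup.centralizer ({z} : Set G)) : G) =
        ((w : Subgroup.centralizer ({z} : Set G)) : G) * (g⁻¹ * (b : G) * g) :=
      congrArg Subtype.val hbw
    generalize ((w : Subgroup.centralizer ({z} : Set G)) : G) = w' at hw' ⊢
    calc (b : G) * (g * w' * g⁻¹) = g * (g⁻¹ * (b : G) * g * w') * g⁻¹ := by group
      _ = _ := by rw [hw']; group
  · have hw' : ((w : Subgroup.centralizer ({z} : Set G)) : G) *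
        ((q : Subgroup.centralizer ({z} : Set G)) : G) *
        ((w : Subgroup.centralizer ({z} : Set G)) : G)⁻¹ =
        ((q : Subgroup.centralizer ({z} : Set G)) : G) * z :=
      congrArg (fun a : Q => ((a : Subgroup.centralizer ({z} : Set G)) : G)) hw
    have hy' : ((y : Subgroup.centralizer ({z} : Set G)) : G) *
        ((sq : Subgroup.centralizer ({z} : Set G)) : G) *
        ((y : Subgroup.centralizer ({z} : Set G)) : G)⁻¹ =
        ((sq : Subgroup.centralizer ({z} : Set G)) : G) * z :=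
      congrArg (fun a : Q => ((a : Subgroup.centralizer ({z} : Set G)) : G)) hy
    have hyz : ((y : Subgroup.centralizer ({z} : Set G)) : G) * z =
        z * ((y : Subgroup.centralizer ({z} : Set G)) : G) :=
      (Subgroup.mem_centralizer_iff.1 y.1.2 z rfl).symm
    have hsz : ((sq : Subgroup.centralizer ({z} : Set G)) : G) * z =
        z * ((sq : Subgroup.centralizer ({z} : Set G)) : G) :=
      (Subgroup.mem_centralizer_iff.1 sq.1.2 z rfl).symm
    have hzz : z * z = 1 := hc.datum.sq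
    have hgz : g * z * g⁻¹ = ((sq : Subgroup.centralizer ({z} : Set G)) : G) := hp.eq.symm
    generalize ((y : Subgroup.centralizer ({z} : Set G)) : G) = y' at hy' hyz ⊢
    generalize ((w : Subgroup.centralizer ({z} : Set G)) : G) = w' at hw' ⊢
    generalize ((q : Subgroup.centralizer ({z} : Set G)) : G) = q' at hq hw'
    generalize ((sq : Subgroup.centralizer ({z} : Set G)) : G) = s at hy' hsz hgz ⊢
    calc y' * (g * w' * g⁻¹) * z * (y' * (g * w' * g⁻¹))⁻¹
        = y' * (g * (w' * (g⁻¹ * z * g) * w'⁻¹) * g⁻¹) * y'⁻¹ := by group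
      _ = y' * (g * (q' * z) * g⁻¹) * y'⁻¹ := by
        rw [show g⁻¹ * z * g = q' from by
          calc g⁻¹ * z * g = g⁻¹ * (g * q' * g⁻¹) * g := by rw [hq]
            _ = q' := by group, hw']
      _ = y' * ((g * q' * g⁻¹) * (g * z * g⁻¹)) * y'⁻¹ := by group
      _ = y' * (z * s) * y'⁻¹ := by rw [hq, hgz]
      _ = (y' * z) * s * y'⁻¹ := by group
      _ = z * (y' * s * y'⁻¹) := by rw [hyz]; group
      _ = s := by rw [hy', hsz, ← mul_assoc, hzz, one_mul]

/-- The element of `Co0` chosen over an element of `C` commuting with `b`, modulo `± γ`. -/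
noncomputable def centHom (hc : Ctx z Q e ψ) (hp2 : p ≠ 2) {γ : Co0} (hγ : γ ^ p = 1)
    (hm : Match e b γ) : bCent b →* Subgroup.centralizer ({γ} : Set Co0) ⧸ base γ where
  toFun k := QuotientGroup.mk ⟨(exists_match_right (e := e) k.1).choose,
    Subgroup.mem_centralizer_singleton_iff.2
      (commute_of_commute hc hp2 hγ hm (exists_match_right (e := e) k.1).choose_spec
        (mem_bCent.1 k.2)).eq⟩
  map_one' := by
    refine (QuotientGroup.eq_one_iff _).2 (Subgroup.mem_sup_left ?_)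
    have h := (exists_match_right (e := e) (1 : bCent b).1).choose_spec
    rw [Match, OneMemClass.coe_one, QuotientGroup.mk_one, map_one] at h
    exact (QuotientGroup.eq_one_iff _).1 h
  map_mul' k l := by
    rw [← QuotientGroup.mk_mul]
    refine QuotientGroup.eq.2 (Subgroup.mem_sup_left ?_)
    have h1 := (exists_match_right (e := e) k.1).choose_spec.mul
      (exists_match_right (e := e) l.1).choose_spec
    have h2 := (exists_match_right (e := e) (k * l).1).choose_spec
    exact QuotientGroup.eq.1 (h2.trans h1.symm)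

theorem centHom_eq {hp2 : p ≠ 2} {γ : Co0} {hγ : γ ^ p = 1} {hm : Match e b γ} (k : bCent b)
    {g : Co0} (hg : Match e k.1 g) (hgc : g ∈ Subgroup.centralizer ({γ} : Set Co0)) :
    centHom hc hp2 hγ hm k = QuotientGroup.mk ⟨g, hgc⟩ :=
  QuotientGroup.eq.2 (Subgroup.mem_sup_left
    (QuotientGroup.eq.1 ((exists_match_right (e := e) k.1).choose_spec.trans hg.symm)))

theorem centHom_surjective {hp2 : p ≠ 2} {γ : Co0} {hγ : γ ^ p = 1} {hm : Match e b γ}
    (hb : b ^ p = 1) : Function.Surjective (centHom hc hp2 hγ hm) := by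
  intro x
  obtain ⟨⟨g, hg⟩, rfl⟩ := QuotientGroup.mk_surjective x
  obtain ⟨h, hh, hbh⟩ := exists_match_commute hc hp2 hb hm
    (Subgroup.mem_centralizer_singleton_iff.1 hg)
  exact ⟨⟨h, mem_bCent.2 hbh⟩, centHom_eq hc ⟨h, mem_bCent.2 hbh⟩ hh hg⟩

theorem centHom_eq_one {hp2 : p ≠ 2} {γ : Co0} {hγ : γ ^ p = 1} {hm : Match e b γ} (k : bCent b) :
    centHom hc hp2 hγ hm k = 1 ↔ ∃ n : ℕ, k.1 * b ^ n ∈ Q := by
  have hpow : ∀ n : ℕ, Match e (b ^ n) (γ ^ n) := by
    intro n
    induction n with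
    | zero => simp [Match]
    | succ n ih => rw [pow_succ, pow_succ]; exact ih.mul hm
  obtain ⟨g, hg⟩ := exists_match_right (e := e) k.1
  have hgc : g ∈ Subgroup.centralizer ({γ} : Set Co0) := Subgroup.mem_centralizer_singleton_iff.2
    (commute_of_commute hc hp2 hγ hm hg (mem_bCent.1 k.2)).eq
  rw [centHom_eq hc k hg hgc, QuotientGroup.eq_one_iff]
  constructor
  · intro h
    have h' : g ∈ Subgroup.center Co0 ⊔ Subgroup.zpowers γ := h
    obtain ⟨c, hc', d, hd, hcd⟩ := Subgroup.mem_sup_of_normal_left.1 h'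
    obtain ⟨n, hn⟩ : ∃ n : ℕ, γ ^ n = d⁻¹ :=
      mem_powers_iff_mem_zpowers.2 (inv_mem hd)
    refine ⟨n, ?_⟩
    have h1 := hg.mul (hpow n)
    rw [← hcd, hn, mul_inv_cancel_right, Match, (QuotientGroup.eq_one_iff c).2 hc', eq_comm,
      map_eq_one_iff e e.injective, QuotientGroup.eq_one_iff] at h1
    exact h1
  · rintro ⟨n, hn⟩
    show g ∈ Subgroup.center Co0 ⊔ Subgroup.zpowers γ
    have h1 := hg.mul (hpow n)
    rw [Match, (QuotientGroup.eq_one_iff (k.1 * b ^ n)).2 hn, map_one, QuotientGroup.eq_one_iff] at h1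
    have e1 : g = g * γ ^ n * (γ ^ n)⁻¹ := by group
    rw [e1]
    exact Subgroup.mul_mem_sup h1 (inv_mem (Subgroup.pow_mem _ (Subgroup.mem_zpowers γ) n))

end CfsgLib.MonsterCent13
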