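import Mathlib
import Cfsg.Agent.MonsterCent13.Main
import Cfsg.Agent.LargeExtraspecial.Simple

set_option autoImplicit false

/-! `C(b)` modulo `b`: the image of `z`, its centraliser, and the generalised Fitting subgroup of
that centraliser. -/

namespace CfsgLib.MonsterCent13

open Cfsg CfsgLib.Leech

variable {G : Type*} [Group G] [Finite G] {z : G}
variable {Q : Subgroup (Subgroup.centralizer ({z} : Set G))} [Q.Normal]
variable {e : (Subgroup.centralizer ({z} : Set G)) ⧸ Q ≃* Spor.Co1}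
variable {ψ : leechLattice → Q ⧸ Subgroup.center Q}
variable (hc : Ctx z Q e ψ) {p : ℕ} [Fact p.Prime] {b : Subgroup.centralizer ({z} : Set G)}
include hc

theorem quot_setting (hp2 : p ≠ 2) (hb : b ^ p = 1) {γ : Co0} (hγ : γ ^ p = 1) (hm : Match e b γ)
    {g : G} {sq : Q} (hp : ConjPair z Q g sq)
    (hcs : Commute b (sq : Subgroup.centralizer ({z} : Set G)))
    (B : Subgroup G) (hB : B = Subgroup.zpowers (b : G))
    [hn : (B.subgroupOf (Subgroup.centralizer (B : Set G))).Normal]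
    (hfaith : ∀ k ∈ Subgroup.centralizer ({γ} : Set Co0),
      (∀ v : leechLattice, Cg (γ • v) v → Cg (k • v) v) →
        k ∈ Subgroup.center Co0 ⊔ Subgroup.zpowers γ)
    (hcore : ∀ T : Subgroup (Subgroup.centralizer ({γ} : Set Co0) ⧸ base γ),
      T.Normal → IsPGroup 2 T → T = ⊥) :
    ∃ (zb : ↥(Subgroup.centralizer (B : Set G)) ⧸ B.subgroupOf (Subgroup.centralizer (B : Set G)))
      (R : Subgroup (Subgroup.centralizer ({zb} : Set _))) (_ : R.Normal)
      (χ : Subgroup.centralizer ({zb} : Set _) →* Subgroup.centralizer ({γ} : Set Co0) ⧸ base γ),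
      orderOf zb = 2 ∧ generalizedFittingSubgroup (Subgroup.centralizer ({zb} : Set _)) = R ∧
        IsExtraspecial 2 R ∧ Nat.card R = Nat.card (fixQ Q b) ∧ Function.Surjective χ ∧
        χ.ker = R ∧ ∃ x, (∃ hq : x * zb * x⁻¹ ∈ Subgroup.centralizer ({zb} : Set _),
          (⟨x * zb * x⁻¹, hq⟩ : Subgroup.centralizer ({zb} : Set _)) ∈ R) ∧ x * zb * x⁻¹ ≠ zb := by
  classical
  haveI : Fact (Nat.Prime 2) := ⟨Nat.prime_two⟩
  set CB := Subgroup.centralizer (B : Set G) with hCB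
  set N := B.subgroupOf CB with hN
  have hbp : (b : G) ^ p = 1 := congrArg Subtype.val hb
  have hmemCB : ∀ x : G, x ∈ CB ↔ Commute (b : G) x := by
    intro x
    rw [hCB, Subgroup.mem_centralizer_iff]
    constructor
    · exact fun h => h _ (hB ▸ Subgroup.mem_zpowers _)
    · intro h y hy
      rw [hB] at hy
      obtain ⟨n, rfl⟩ := Subgroup.mem_zpowers_iff.1 hy
      exact (h.zpow_left n).eq
  have hmemN : ∀ x : CB, (QuotientGroup.mk x : CB ⧸ N) = 1 ↔ ∃ n : ℕ, (b : G) ^ n = x := fun x => by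
    rw [QuotientGroup.eq_one_iff, hN, Subgroup.mem_subgroupOf, hB, ← mem_powers_iff_mem_zpowers]
    rfl
  have hfin : ∀ {w : G}, w ^ 2 = 1 → (∃ n : ℕ, (b : G) ^ n = w) → w = 1 := by
    rintro w hw ⟨n, rfl⟩
    have h1 : ((b : G) ^ n) ^ p = 1 := by rw [← pow_mul, mul_comm, pow_mul, hbp, one_pow]
    have hd : orderOf ((b : G) ^ n) ∣ Nat.gcd 2 p :=
      Nat.dvd_gcd (orderOf_dvd_of_pow_eq_one hw) (orderOf_dvd_of_pow_eq_one h1)
    rw [(Nat.coprime_primes Nat.prime_two Fact.out).2 (Ne.symm hp2), Nat.dvd_one] at hd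
    exact orderOf_eq_one_iff.1 hd
  have hbQ : ∀ n : ℕ, b ^ n ∈ Q → b ^ n = 1 := by
    intro n hn
    have h1 : (b ^ n) ^ p = 1 := by rw [← pow_mul, mul_comm, pow_mul, hb, one_pow]
    have h2 := pow_card_eq_one' (x := (⟨b ^ n, hn⟩ : Q))
    rw [hc.setting.2.2.2.1] at h2
    have hd : orderOf (b ^ n) ∣ Nat.gcd (2 ^ (2 * 12 + 1)) p :=
      Nat.dvd_gcd (orderOf_dvd_of_pow_eq_one (congrArg Subtype.val h2)) (orderOf_dvd_of_pow_eq_one h1)
    rw [((Nat.coprime_primes Nat.prime_two Fact.out).2 (Ne.symm hp2)).pow_left, Nat.dvd_one] at hd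
    exact orderOf_eq_one_iff.1 hd
  have hz2 : z ^ 2 = 1 := by rw [pow_two]; exact hc.datum.sq
  have hz1 : z ≠ 1 := fun h => by
    have := hc.setting.1
    rw [h, orderOf_one] at this
    omega
  have hbz : Commute (b : G) z := (Subgroup.mem_centralizer_iff.1 b.2 z rfl).symm
  have hzCB : z ∈ CB := (hmemCB z).2 hbz
  set zb : CB ⧸ N := QuotientGroup.mk ⟨z, hzCB⟩ with hzb
  have hzbord : orderOf zb = 2 := by
    refine orderOf_eq_prime ?_ fun h => hz1 (hfin hz2 ((hmemN _).1 h))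
    rw [hzb, ← QuotientGroup.mk_pow, show (⟨z, hzCB⟩ : CB) ^ 2 = 1 from Subtype.ext hz2]; rfl
  have hcoe : ∀ k : bCent b, ((k : Subgroup.centralizer ({z} : Set G)) : G) ∈ CB := fun k =>
    (hmemCB _).2 (congrArg Subtype.val (mem_bCent.1 k.2))
  let φ₀ : bCent b →* CB ⧸ N := (QuotientGroup.mk' N).comp
    (MonoidHom.mk' (fun k => (⟨_, hcoe k⟩ : CB)) (fun a c => rfl))
  have hrange : φ₀.range = Subgroup.centralizer ({zb} : Set (CB ⧸ N)) := by
    ext x
    constructor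
    · rintro ⟨k, rfl⟩
      rw [Subgroup.mem_centralizer_singleton_iff, hzb]
      show QuotientGroup.mk _ * QuotientGroup.mk _ = QuotientGroup.mk _ * QuotientGroup.mk _
      rw [← QuotientGroup.mk_mul, ← QuotientGroup.mk_mul]
      exact congrArg QuotientGroup.mk (Subtype.ext
        (Subgroup.mem_centralizer_iff.1 k.1.2 z rfl).symm)
    · intro hx
      obtain ⟨h, rfl⟩ := QuotientGroup.mk_surjective x
      have h1 : (QuotientGroup.mk (h * ⟨z, hzCB⟩ * h⁻¹ * (⟨z, hzCB⟩ : CB)⁻¹) : CB ⧸ N) = 1 := by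
        have := Subgroup.mem_centralizer_singleton_iff.1 hx
        simp only [QuotientGroup.mk_mul, QuotientGroup.mk_inv]
        rw [hzb] at this
        rw [this]; group
      obtain ⟨n, hn'⟩ := (hmemN _).1 h1
      simp only [Subgroup.coe_mul, InvMemClass.coe_inv] at hn'
      have hw : (h : G) * z * (h : G)⁻¹ = (b : G) ^ n * z := by rw [hn']; group
      have hsq : ((b : G) ^ n) ^ 2 = 1 := by
        have h3 : ((h : G) * z * (h : G)⁻¹) ^ 2 = 1 := by rw [conj_pow, hz2]; group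
        rwa [hw, (hbz.pow_left n).mul_pow, hz2, mul_one] at h3
      rw [hfin hsq ⟨n, rfl⟩, one_mul] at hw
      have hz' : (h : G) * z = z * (h : G) := mul_inv_eq_iff_eq_mul.1 hw
      exact ⟨⟨⟨(h : G), Subgroup.mem_centralizer_singleton_iff.2 hz'⟩,
        mem_bCent.2 (Subtype.ext ((hmemCB _).1 h.2))⟩, rfl⟩
  set D := Subgroup.centralizer ({zb} : Set (CB ⧸ N)) with hD
  let φ : bCent b →* D := φ₀.codRestrict D fun k => hrange ▸ ⟨k, rfl⟩
  have hφs : Function.Surjective φ := fun d => by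
    obtain ⟨k, hk⟩ := (hrange.symm ▸ d.2 : (d : CB ⧸ N) ∈ φ₀.range)
    exact ⟨k, Subtype.ext hk⟩
  have hφker : ∀ k : bCent b, φ k = 1 ↔ ∃ n : ℕ, b ^ n = k.1 := fun k => by
    rw [Subtype.ext_iff (a1 := φ k)]
    refine (hmemN _).trans (exists_congr fun n => ?_)
    exact ⟨fun h => Subtype.ext h, fun h => congrArg Subtype.val h⟩
  set Φ := centHom hc hp2 hγ hm
  have hΦφ : φ.ker ≤ Φ.ker := fun k hk => by
    obtain ⟨n, hn'⟩ := (hφker k).1 hk
    refine (centHom_eq_one hc k).2 ⟨(p - 1) * n, ?_⟩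
    rw [← hn', ← pow_add, show n + (p - 1) * n = p * n by
      rw [Nat.sub_mul, one_mul, Nat.add_sub_cancel' (Nat.le_mul_of_pos_left n
        (Fact.out : p.Prime).pos)], pow_mul, hb, one_pow]
    exact one_mem Q
  let χ : D →* Subgroup.centralizer ({γ} : Set Co0) ⧸ base γ := φ.liftOfSurjective hφs ⟨Φ, hΦφ⟩
  have hχ : ∀ k, χ (φ k) = Φ k := fun k => MonoidHom.liftOfRightInverse_comp_apply _ _ _ _ k
  have hχs : Function.Surjective χ := fun x => by
    obtain ⟨k, hk⟩ := centHom_surjective hc hb x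
    exact ⟨φ k, (hχ k).trans hk⟩
  have hqb : ∀ q : fixQ Q b, ((q : Q) : Subgroup.centralizer ({z} : Set G)) ∈ bCent b := fun q =>
    Subgroup.mem_subgroupOf.1 q.2
  let ρ : fixQ Q b →* D := φ.comp (MonoidHom.mk' (fun q => (⟨_, hqb q⟩ : bCent b)) (fun a c => rfl))
  have hρi : Function.Injective ρ := by
    refine (injective_iff_map_eq_one ρ).2 fun q hq => ?_
    obtain ⟨n, hn'⟩ := (hφker _).1 hq
    refine Subtype.ext (Subtype.ext ?_)
    show ((q : Q) : Subgroup.centralizer ({z} : Set G)) = 1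
    rw [← show b ^ n = ((q : Q) : Subgroup.centralizer ({z} : Set G)) from hn']
    exact hbQ n (by rw [show b ^ n = _ from hn']; exact q.1.2)
  set R : Subgroup D := χ.ker with hR
  have hρr : ρ.range = R := by
    ext d
    constructor
    · rintro ⟨q, rfl⟩
      rw [hR, MonoidHom.mem_ker]
      refine (hχ _).trans ((centHom_eq_one hc _).2 ⟨0, ?_⟩)
      rw [pow_zero, mul_one]
      exact q.1.2
    · intro hd
      obtain ⟨k, rfl⟩ := hφs d
      rw [hR, MonoidHom.mem_ker, hχ] at hd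
      obtain ⟨n, hn'⟩ := (centHom_eq_one hc k).1 hd
      have hbn : b ^ n ∈ bCent b := mem_bCent.2 (Commute.pow_right (Commute.refl b) n)
      refine ⟨⟨⟨k.1 * b ^ n, hn'⟩, Subgroup.mem_subgroupOf.2 (mul_mem k.2 hbn)⟩, ?_⟩
      show φ (k * ⟨b ^ n, hbn⟩) = φ k
      rw [map_mul, (hφker ⟨b ^ n, hbn⟩).2 ⟨n, rfl⟩, mul_one]
  let eR : fixQ Q b ≃* R := (MonoidHom.ofInjective hρi).trans (MulEquiv.subgroupCongr hρr)
  obtain ⟨hext, -⟩ := fixQ_extraspecial hc hp2 hb (hc.sq_noncentral hp) hcs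
  have hRE : IsExtraspecial 2 R := LargeExtraspecial.isExtraspecial_of_mulEquiv eR hext
  have hRcent : Subgroup.centralizer (R : Set D) ≤ R := by
    intro d hd
    obtain ⟨k, rfl⟩ := hφs d
    rw [hR, MonoidHom.mem_ker, hχ]
    obtain ⟨γ', hγ'⟩ := exists_match_right (e := e) k.1
    have hγc : γ' ∈ Subgroup.centralizer ({γ} : Set Co0) := Subgroup.mem_centralizer_singleton_iff.2
      (commute_of_commute hc hp2 hγ hm hγ' (mem_bCent.1 k.2)).eq
    rw [centHom_eq hc k hγ' hγc, QuotientGroup.eq_one_iff]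
    show γ' ∈ Subgroup.center Co0 ⊔ Subgroup.zpowers γ
    refine hfaith γ' hγc fun v hv => ?_
    obtain ⟨q, hq, hcom⟩ := exists_lift_commute hc hp2 hb hm hv
    let qf : fixQ Q b := ⟨q, Subgroup.mem_subgroupOf.2 (mem_bCent.2 hcom)⟩
    have hr := Subgroup.mem_centralizer_iff.1 hd (ρ qf) (by rw [SetLike.mem_coe, ← hρr]; exact ⟨qf, rfl⟩)
    have h1 : φ (k * ⟨_, hqb qf⟩ * k⁻¹ * (⟨_, hqb qf⟩ : bCent b)⁻¹) = 1 := by
      simp only [map_mul, map_inv]
      show φ k * ρ qf * (φ k)⁻¹ * (ρ qf)⁻¹ = 1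
      rw [← show ρ qf * φ k = φ k * ρ qf from hr]
      show ρ qf * φ k * (φ k)⁻¹ * (ρ qf)⁻¹ = 1
      group
    obtain ⟨n, hn'⟩ := (hφker _).1 h1
    simp only [Subgroup.coe_mul, InvMemClass.coe_inv] at hn'
    have hmem : k.1 * q.1 * k.1⁻¹ * q.1⁻¹ ∈ Q :=
      mul_mem ((inferInstance : Q.Normal).conj_mem _ q.2 _) (inv_mem q.2)
    have h2 : k.1 * q.1 * k.1⁻¹ = q.1 := by
      have := hbQ n (by rw [hn']; exact hmem)
      rw [hn', mul_inv_eq_one] at this
      exact this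
    refine (psi_eq_iff hc.iso _ _).1 ?_
    rw [hc.conj_class hγ' hq, hq]
    exact congrArg QuotientGroup.mk (Subtype.ext h2)
  have hcore' : pCore 2 D = R := by
    refine le_antisymm (sSup_le fun M hM => ?_) (LocalP.le_pCore (MonoidHom.normal_ker χ) hRE.1.1)
    intro m hm'
    rw [hR, MonoidHom.mem_ker, ← Subgroup.mem_bot,
      ← hcore _ (hM.1.map χ hχs) (hM.2.map χ)]
    exact ⟨m, hm', rfl⟩
  obtain ⟨x, hbx, hx⟩ := exists_move hc hp2 hb hp hcs
  refine ⟨zb, R, MonoidHom.normal_ker χ, χ, hzbord, ?_, hRE, (Nat.card_congr eR.toEquiv).symm,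
    hχs, rfl, ?_⟩
  · rw [CharPClimb.generalizedFitting_eq_pCore (p := 2) (by rw [hcore']; exact hRcent), hcore']
  · refine ⟨QuotientGroup.mk ⟨x, (hmemCB x).2 hbx⟩, ?_⟩
    set h : CB := ⟨x, (hmemCB x).2 hbx⟩
    have hcomp : (QuotientGroup.mk h : CB ⧸ N) * zb * (QuotientGroup.mk h : CB ⧸ N)⁻¹ =
        φ₀ ⟨sq, mem_bCent.2 hcs⟩ := by
      rw [hzb, ← QuotientGroup.mk_inv, ← QuotientGroup.mk_mul, ← QuotientGroup.mk_mul]
      exact congrArg QuotientGroup.mk (Subtype.ext hx)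
    rw [hcomp]
    refine ⟨⟨(φ ⟨sq, mem_bCent.2 hcs⟩).2, ?_⟩, fun h' => ?_⟩
    · rw [← hρr]
      exact ⟨⟨sq, Subgroup.mem_subgroupOf.2 (mem_bCent.2 hcs)⟩, rfl⟩
    · rw [hzb] at h'
      have h1 : (QuotientGroup.mk ((⟨z, hzCB⟩ : CB)⁻¹ * ⟨_, hcoe ⟨sq, mem_bCent.2 hcs⟩⟩) : CB ⧸ N) = 1 :=
        (QuotientGroup.eq_one_iff _).2 (QuotientGroup.eq.1 h'.symm)
      obtain ⟨n, hn'⟩ := (hmemN _).1 h1
      simp only [Subgroup.coe_mul, InvMemClass.coe_inv] at hn'
      refine hp.ne ?_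
      rw [← hp.eq]
      have hzi : z⁻¹ = z := inv_eq_of_mul_eq_one_right (by rw [← sq_two' z]; exact hz2)
      have hs2 : ((sq : Subgroup.centralizer ({z} : Set G)) : G) ^ 2 = 1 := by
        rw [hp.eq, conj_pow, hz2]; group
      have hsz : Commute z ((sq : Subgroup.centralizer ({z} : Set G)) : G) :=
        Subgroup.mem_centralizer_iff.1 sq.1.2 z rfl
      have h2 : (z⁻¹ * ((sq : Subgroup.centralizer ({z} : Set G)) : G)) ^ 2 = 1 := by
        rw [hzi, hsz.mul_pow, hz2, hs2, mul_one]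
      exact (inv_mul_eq_one.1 (hfin h2 ⟨n, hn'⟩)).symm
where
  sq_two' (a : G) : a ^ 2 = a * a := pow_two a

end CfsgLib.MonsterCent13
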