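import Mathlib
import Cfsg.Agent.Leech.Monster.Basic

set_option autoImplicit false

/-! Changing the identification of `C/Q` by a lattice automorphism. -/

namespace CfsgLib.MonsterCent13

open Cfsg CfsgLib.Leech

variable {G : Type*} [Group G] {z : G}
variable {Q : Subgroup (Subgroup.centralizer ({z} : Set G))} [Q.Normal]

/-- The identification followed by conjugation by `t`. -/
noncomputable def turn (e : (Subgroup.centralizer ({z} : Set G)) ⧸ Q ≃* Spor.Co1) (t : Co0) :
    (Subgroup.centralizer ({z} : Set G)) ⧸ Q ≃* Spor.Co1 :=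
  e.trans (MulAut.conj (QuotientGroup.mk t : Spor.Co1))

theorem match_turn {e : (Subgroup.centralizer ({z} : Set G)) ⧸ Q ≃* Spor.Co1} {t g : Co0}
    {h : Subgroup.centralizer ({z} : Set G)} :
    Match (turn e t) h (t * g * t⁻¹) ↔ Match e h g := by
  rw [Match, Match, turn, MulEquiv.trans_apply, MulAut.conj_apply]
  simp only [QuotientGroup.mk_mul, QuotientGroup.mk_inv, mul_left_inj, mul_right_inj]

theorem ctx_turn {e : (Subgroup.centralizer ({z} : Set G)) ⧸ Q ≃* Spor.Co1}
    {ψ : leechLattice → Q ⧸ Subgroup.center Q} (hc : Ctx z Q e ψ) (t : Co0) :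
    Ctx z Q (turn e t) (fun v => ψ (t⁻¹ • v)) := by
  refine ⟨hc.setting, ⟨fun v w => ?_, fun c => ?_, fun v => ?_, fun h g hg v q hv => ?_⟩⟩
  · simp only [co0_map_add]; exact hc.iso.1 _ _
  · obtain ⟨v, hv⟩ := hc.iso.2.1 c
    exact ⟨t • v, by show ψ (t⁻¹ • t • v) = c; rw [inv_smul_smul, hv]⟩
  · show ψ (t⁻¹ • v) = 1 ↔ _
    rw [hc.iso.2.2.1]
    constructor
    · rintro ⟨w, hw⟩
      exact ⟨t • w, by rw [← co0_map_add, ← hw, smul_inv_smul]⟩
    · rintro ⟨w, rfl⟩
      exact ⟨t⁻¹ • w, co0_map_add _ _ _⟩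
  · have hm : Match e h (t⁻¹ * g * t) := by
      have h' : Match (turn e t) h g := hg
      rw [show g = t * (t⁻¹ * g * t) * t⁻¹ by group, match_turn] at h'
      exact h'
    have h2 := hc.iso.2.2.2 h _ hm _ q hv
    rwa [mul_smul, mul_smul, smul_inv_smul] at h2

end CfsgLib.MonsterCent13
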